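import Cfsg.Agent.OWagner.Coord

/-!
The theorem of Ostrom and Wagner: a finite projective plane with doubly transitive collineation group is
desarguesian.
-/

set_option autoImplicit false
set_option linter.all false

namespace Cfsg.Agent.OWagner

/-- The pairs of compatible permutations of points and lines. -/
def collGrp (P L : Type*) [Membership P L] : Subgroup (Equiv.Perm P × Equiv.Perm L) where
  carrier := {g | ∀ p l, g.1 p ∈ g.2 l ↔ p ∈ l}
  one_mem' := fun _ _ => Iff.rfl
  mul_mem' := fun {a b} ha hb p l => (ha (b.1 p) (b.2 l)).trans (hb p l)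
  inv_mem' := fun {a} ha p l => by
    have := (ha (a.1⁻¹ p) (a.2⁻¹ l)).symm
    simpa using this

instance collActP (P L : Type*) [Membership P L] : MulAction (collGrp P L) P :=
  MulAction.compHom P ((MonoidHom.fst _ _).comp (collGrp P L).subtype)

instance collActL (P L : Type*) [Membership P L] : MulAction (collGrp P L) L :=
  MulAction.compHom L ((MonoidHom.snd _ _).comp (collGrp P L).subtype)

theorem desarguesian {P L : Type*} [Membership P L] [Fintype P] [Fintype L] [Configuration.ProjectivePlane P L]
    (h2t : ∀ p₁ p₂ q₁ q₂ : P, p₁ ≠ p₂ → q₁ ≠ q₂ →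
      ∃ (σ : Equiv.Perm P) (τ : Equiv.Perm L), (∀ (p : P) (l : L), σ p ∈ τ l ↔ p ∈ l) ∧ σ p₁ = q₁ ∧ σ p₂ = q₂) :
    ∃ (F : Type) (_ : Field F) (_ : Fintype F) (φ : P ≃ Projectivization F (Fin 3 → F)),
      (∀ l : L, ∃ W : Submodule F (Fin 3 → F), Module.finrank F W = 2 ∧
          ∀ p : P, p ∈ l ↔ (φ p).submodule ≤ W) ∧
      (∀ W : Submodule F (Fin 3 → F), Module.finrank F W = 2 →
          ∃ l : L, ∀ p : P, p ∈ l ↔ (φ p).submodule ≤ W) := by
  classical
  let n := Configuration.ProjectivePlane.order P L
  have hplane : IsPlane (fun (p : P) (l : L) => p ∈ l) n :=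
    { two_le := Configuration.ProjectivePlane.one_lt_order P L
      join := fun p q => by
        by_cases hpq : p = q
        · subst hpq
          have : 0 < Configuration.lineCount L p := by
            have := Configuration.ProjectivePlane.two_lt_lineCount (L := L) p; omega
          obtain ⟨⟨l, hl⟩⟩ := (Nat.card_pos_iff.1 this).1
          exact ⟨l, hl, hl⟩
        · obtain ⟨l, hl, -⟩ := Configuration.HasLines.existsUnique_line P L p q hpq
          exact ⟨l, hl⟩
      meet := fun l m => by
        by_cases hlm : l = m
        · subst hlm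
          have : 0 < Configuration.pointCount P l := by
            have := Configuration.ProjectivePlane.two_lt_pointCount (P := P) l; omega
          obtain ⟨⟨p, hp⟩⟩ := (Nat.card_pos_iff.1 this).1
          exact ⟨p, hp, hp⟩
        · obtain ⟨p, hp, -⟩ := Configuration.HasPoints.existsUnique_point P L l m hlm
          exact ⟨p, hp⟩
      unique := fun h1 h2 h3 h4 => Configuration.Nondegenerate.eq_or_eq h1 h2 h3 h4
      card_pts := fun l => (Nat.card_coe_set_eq _).symm.trans (Configuration.ProjectivePlane.pointCount_eq P l)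
      card_lns := fun p => (Nat.card_coe_set_eq _).symm.trans (Configuration.ProjectivePlane.lineCount_eq L p)
      cardP := by rw [Nat.card_eq_fintype_card]; exact Configuration.ProjectivePlane.card_points P L
      cardL := by rw [Nat.card_eq_fintype_card]; exact Configuration.ProjectivePlane.card_lines P L }
  let G := collGrp P L
  have hset : Setting G (fun (p : P) (l : L) => p ∈ l) n :=
    { toIsPlane := hplane
      compat := fun g p l => g.2 p l
      faithful := fun g hg => by
        refine Subtype.ext (Prod.ext (Equiv.ext hg) (Equiv.ext fun l => ?_))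
        obtain ⟨p, hp, -⟩ := hplane.exists_pt_on l (Classical.choose (hplane.nonempty_pts l))
          (Classical.choose (hplane.nonempty_pts l))
        obtain ⟨q, hq, hqp, -⟩ := hplane.exists_pt_on l p p
        have hp' := (g.2 p l).2 hp
        have hq' := (g.2 q l).2 hq
        rw [show g.1.1 p = p from hg p] at hp'
        rw [show g.1.1 q = q from hg q] at hq'
        exact hplane.line_eq hqp hq' hp' hq hp }
  have h2 : TwoTrans G P := by
    intro a b c d hab hcd
    obtain ⟨σ, τ, hστ, h1, h2⟩ := h2t a b c d hab hcd
    exact ⟨⟨(σ, τ), hστ⟩, h1, h2⟩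
  obtain ⟨F, _, _, v, hv, hF, hinj, hlines⟩ := hset.exists_coord
    (fun c l m hc hcm hml A B hA hAc hB hBc => hset.elation_transitive h2 hc hcm hml hA hAc hB hBc)
  have hrank : Module.finrank F (Fin 3 → F) = 3 := by simp
  have hcard : Nat.card (Projectivization F (Fin 3 → F)) = n ^ 2 + n + 1 := by
    rw [Projectivization.card_of_finrank F (Fin 3 → F) hrank, Nat.card_eq_fintype_card, hF]
    simp [Finset.sum_range_succ]
    ring
  haveI : Finite (Projectivization F (Fin 3 → F)) := inferInstance
  let φ : P ≃ Projectivization F (Fin 3 → F) := Equiv.ofBijective _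
    ((Nat.bijective_iff_injective_and_card _).2 ⟨hinj, by rw [hcard, hplane.cardP]⟩)
  have hφ : ∀ p, (φ p).submodule = Submodule.span F {v p} := fun p => Projectivization.submodule_mk (v p) (hv p)
  have hW : ∀ l : L, ∃ W : Submodule F (Fin 3 → F), Module.finrank F W = 2 ∧
      ∀ p : P, p ∈ l ↔ (φ p).submodule ≤ W := by
    intro l
    obtain ⟨c, hc, hcl⟩ := hlines l
    let f : Module.Dual F (Fin 3 → F) :=
      c 0 • LinearMap.proj 0 + c 1 • LinearMap.proj 1 + c 2 • LinearMap.proj 2
    have hf : f ≠ 0 := by
      intro e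
      refine hc (funext fun i => ?_)
      have := congrArg (fun g : Module.Dual F (Fin 3 → F) => g (Pi.single i 1)) e
      fin_cases i <;> simpa [f] using this
    refine ⟨LinearMap.ker f, ?_, fun p => ?_⟩
    · have := Module.Dual.finrank_ker_add_one_of_ne_zero hf
      rw [hrank] at this
      omega
    · rw [hφ, Submodule.span_singleton_le_iff_mem, LinearMap.mem_ker]
      refine (hcl p).trans ?_
      simp [f]
  refine ⟨F, inferInstance, inferInstance, φ, hW, fun W hW2 => ?_⟩
  obtain ⟨u, hu, hu0⟩ : ∃ u ∈ W, u ≠ 0 := by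
    refine W.exists_mem_ne_zero_of_ne_bot ?_
    rintro rfl
    rw [finrank_bot] at hW2
    omega
  obtain ⟨w, hw, hwu⟩ : ∃ w ∈ W, w ∉ Submodule.span F {u} := by
    refine SetLike.exists_of_lt (lt_of_le_of_ne (Submodule.span_le.2 (by simpa using hu)) ?_)
    intro e
    rw [← e, finrank_span_singleton hu0] at hW2
    omega
  have hw0 : w ≠ 0 := fun e => hwu (e ▸ Submodule.zero_mem _)
  obtain ⟨l, hp, hq⟩ := hplane.join (φ.symm (Projectivization.mk F u hu0))
    (φ.symm (Projectivization.mk F w hw0))
  obtain ⟨W', hW', hl⟩ := hW l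
  have h1 := (hl _).1 hp
  have h2' := (hl _).1 hq
  rw [φ.apply_symm_apply, Projectivization.submodule_mk] at h1 h2'
  have hle : Submodule.span F {u, w} ≤ W' := by
    rw [Submodule.span_insert]
    exact sup_le h1 h2'
  have hleW : Submodule.span F {u, w} ≤ W := Submodule.span_le.2 (by
    intro x hx
    rcases hx with rfl | rfl
    · exact hu
    · exact hw)
  have hrk : 2 ≤ Module.finrank F (Submodule.span F {u, w}) := by
    have hlt : Submodule.span F {u} < Submodule.span F {u, w} :=
      lt_of_le_of_ne (Submodule.span_mono (by simp)) fun e => hwu (e ▸ Submodule.subset_span (by simp))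
    have := Submodule.finrank_lt_finrank_of_lt hlt
    rw [finrank_span_singleton hu0] at this
    omega
  have e1 := Submodule.eq_of_le_of_finrank_le hle (by omega)
  have e2 := Submodule.eq_of_le_of_finrank_le hleW (by omega)
  exact ⟨l, fun p => by rw [hl p, ← e1, e2]⟩

end Cfsg.Agent.OWagner
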